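import Cfsg.Agent.H374.TC.CuMain

/-!
# `F₄(q)`: the elements of `V` which commute modulo `Z` with an element of the parabolic of type `C₃` (helper928, S2452)

* `DZ g` : the elements `a ∈ V` with `a g a⁻¹ g⁻¹ ∈ Z`, `Z` the root group of the highest root;
* `card_DZ_word` : `|DZ (b k)| ≤ q ^ cq ω`, `k` over the word `ω`;
* `cnt` : at most `q ^ 9` elements, unless `g` has a conjugate in `P_{k ≠ i}`, `i ≠ 3`.
-/

set_option autoImplicit false
set_option linter.unusedSectionVars false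

namespace Cfsg.Agent.H928.FR

open CoxeterSystem Cfsg.Agent.ChevalleyStructure.CoxeterGeom Cfsg.Agent.Tits.Roots Cfsg.Agent.Tits.Core
  Cfsg.Agent.Tits.RootComb Cfsg.Agent.Nodes.Comb Cfsg.Agent.Nodes.Reps Cfsg.Agent.Nodes.BNOf
  Cfsg.Agent.Nodes.StabComb Cfsg.Agent.Nodes.Bruhat Cfsg.Agent.Nodes.OppDec Cfsg.Agent.Nodes.LeviDec
  Cfsg.Agent.Nodes.NormalForm Cfsg.Agent.Nodes.Unique Cfsg.Agent.Nodes.NormX Cfsg.Agent.Nodes.Coroot
  Cfsg.Agent.KFacts.RgdPar Cfsg.Agent.KFacts.RgdChevCoord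
  Cfsg.Agent.KFacts.RgdBorelTits Cfsg.Agent.KFacts.RgdFilt
open Cfsg.Lie Cfsg.Agent.ChevalleyStructure Cfsg.Agent.ChevalleyStructure.Elts
  Cfsg.Agent.ChevalleyStructure.RootVec Cfsg.Agent.ChevalleyStructure.RootVecTab
  Cfsg.Agent.ChevalleyStructure.NPerm Cfsg.Agent.ChevalleyStructure.CoxeterGeomTypes
open Cfsg.Agent.Nodes Cfsg.Agent.Nodes.RGDChev
open Cfsg.Agent.H701.F43.Cent (hF cF nroots finW idxV mem_NotJ_iff lt_idxV)
open Cfsg.Agent.H520.FC
open Cfsg.Agent.H374.TC.Cu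
open Cfsg.Agent.H744.FC (conj_XT)
open Cfsg.Agent.SigZero.FFourTwo (LC chkLC key act mem_WJ_iff rep_word eq_of_key)

universe u

variable {K : Type u} [Field K] [Finite K]

theorem VK_le_PK {J : Set (Fin 4)} : VK K J ≤ PK K J := VJ_le_PJ

/-- the elements of `V` which commute with `g` modulo `Z` -/
def DZ (g : ↥(chevF4.group K)) : Subgroup ↥(chevF4.group K) where
  carrier := {a | a ∈ VK K {k | k ≠ 3} ∧ a * g * a⁻¹ * g⁻¹ ∈ XT K}
  one_mem' := ⟨one_mem _, by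
    have e : (1 : ↥(chevF4.group K)) * g * 1⁻¹ * g⁻¹ = 1 := by group
    rw [e]; exact one_mem _⟩
  mul_mem' := by
    rintro a b ⟨ha, ha'⟩ ⟨hb, hb'⟩
    refine ⟨mul_mem ha hb, ?_⟩
    have e : a * b * g * (a * b)⁻¹ * g⁻¹ = (a * (b * g * b⁻¹ * g⁻¹) * a⁻¹) * (a * g * a⁻¹ * g⁻¹) := by group
    rw [e]
    exact mul_mem (conj_XT (VK_le_PK ha) hb') ha'
  inv_mem' := by
    rintro a ⟨ha, ha'⟩
    refine ⟨inv_mem ha, ?_⟩
    have e : a⁻¹ * g * a⁻¹⁻¹ * g⁻¹ = a⁻¹ * (a * g * a⁻¹ * g⁻¹)⁻¹ * a⁻¹⁻¹ := by group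
    rw [e]
    exact conj_XT (inv_mem (VK_le_PK ha)) (inv_mem ha')

theorem mem_DZ {g a : ↥(chevF4.group K)} : a ∈ DZ g ↔ a ∈ VK K {k | k ≠ 3} ∧ a * g * a⁻¹ * g⁻¹ ∈ XT K := Iff.rfl

theorem closed_NotJ' (J : Set (Fin 4)) : Closed cF hF.isCartan (NotJ cF hF.isCartan J) := by
  intro x hx y hy z hz
  obtain ⟨hxr, hx0, k, hk, hk0⟩ := hx
  have h1 : 0 ≤ z := RGD.nonneg_of_btwn hx0 hy.2.1 hz
  refine ⟨hz.1, h1, k, hk, ?_⟩
  exact btwn_apply_pos hz hk0 (hy.2.1 k)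

/-- the number of the roots of `V` which do not decrease -/
def cq (ω : List (Fin 4)) : ℕ :=
  ((List.range' 24 24).filter fun r => decide (r ∈ idxV ∧ r ≤ act ω r)).length

theorem tab_cq : ∀ ω ∈ LC, (∃ i ∈ ([0, 1, 2] : List (Fin 4)), i ∉ ω) ∨ cq ω ≤ 9 ∨
    key ω ∈ [key [0, 1, 2, 1, 0], key [2, 1, 0, 1, 2], key [1, 2, 1, 0, 1, 2, 1]] := by decide +kernel

theorem DZ_le_UK (g : ↥(chevF4.group K)) : DZ g ≤ UK K := fun _ ha => VJ_le_U _ ha.1

/-- `g = b k` -/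
theorem card_DZ_word {p : ℕ} [Fact p.Prime] [CharP K p] (ω : List (Fin 4)) {b k : ↥(chevF4.group K)}
    (hb : b ∈ BK K) (hk : Rp cF (rgd (K := K) hF cF p).nsys (cF.wordProd ω) k) :
    Nat.card ↥(DZ (b * k)) ≤ Nat.card K ^ cq ω := by
  have R := rgd (K := K) hF cF p
  have e0 : UK K ⊓ DZ (b * k) = DZ (b * k) := inf_eq_right.2 (DZ_le_UK _)
  rw [← e0]
  refine chain (DZ (b * k)) (fun r => r ∈ idxV ∧ r ≤ act ω r) ?_
  rintro m h24 hm hP a ⟨ha, haD⟩
  refine ⟨?_, haD⟩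
  obtain ⟨haV, hac⟩ := mem_DZ.1 haD
  by_cases hmV : m ∈ idxV
  · -- `w` decreases `m`
    have hlt : act ω m < m := by
      by_contra h
      exact hP ⟨hmV, not_lt.1 h⟩
    set c := a * (b * k) * a⁻¹ * (b * k)⁻¹ with hc
    have hcS : c ∈ RGD.Sup (XX chevF4 4 K) (SS m) := by
      refine RGD.le_Sup (S := SS m) ⟨47, by omega, by norm_num, rfl⟩ hac
    have h1 : k * a * k⁻¹ = b⁻¹ * (c⁻¹ * a) * b := by
      rw [hc]; group
    have h2 : k * a * k⁻¹ ∈ RGD.Sup (XX chevF4 4 K) (SS m) := by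
      rw [h1]
      exact conj_nrm (B_nrm_SS K h24 hm.le hb) (mul_mem (inv_mem hcS) ha)
    have h4 := mem_two R hk (SS_pos h24) (closed_SS h24) ha h2
    refine RGD.Sup_mono (fun y hy => ?_) h4
    rcases SS_mem hm y hy.1 with rfl | h5
    · exfalso
      obtain ⟨r, hmr, hr, e⟩ := hy.2
      have h6 := rep_word cF ω hm
      have h7 : vec chevF4 4 (act ω m) = vec chevF4 4 r := by
        rw [← h6.1]
        exact e
      have h8 := vec_inj' h6.2 hr h7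
      omega
    · exact h5
  · -- `m` is not a root of `V`
    have h1 : a ∈ RGD.Sup (XX chevF4 4 K) (SS m ∩ NotJ cF hF.isCartan {k | k ≠ 3}) := by
      rw [← inf_eq R (SS_pos h24) (fun x hx => ⟨hx.1, hx.2.1⟩) (closed_SS h24) (closed_NotJ' _)]
      exact ⟨ha, haV⟩
    refine RGD.Sup_mono (fun y hy => ?_) h1
    rcases SS_mem hm y hy.1 with rfl | h5
    · exfalso
      obtain ⟨r, hr, e⟩ := mem_NotJ_iff.1 hy.2
      have hr48 : r < 48 := by
        have := lt_idxV r hr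
        rwa [nroots] at this
      have h8 := vec_inj' hm hr48 e
      subst h8
      exact hmV hr
    · exact h5

/-- conjugation by elements of `P` -/
theorem card_DZ_conj {g y : ↥(chevF4.group K)} (hy : y ∈ PK K {k | k ≠ 3}) :
    Nat.card ↥(DZ g) ≤ Nat.card ↥(DZ (y * g * y⁻¹)) := by
  obtain ⟨p, hp⟩ := CharP.exists K
  have : Fact p.Prime := ⟨CharP.char_is_prime K p⟩
  have hn := PJ_le_normalizer_VJ (rgd (K := K) hF cF p) {k | k ≠ 3} hy
  refine Nat.card_le_card_of_injective (fun a => ⟨y * a.1 * y⁻¹, ?_⟩) ?_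
  · obtain ⟨haV, hac⟩ := mem_DZ.1 a.2
    refine mem_DZ.2 ⟨(Subgroup.mem_normalizer_iff.1 hn _).1 haV, ?_⟩
    have e : y * a.1 * y⁻¹ * (y * g * y⁻¹) * (y * a.1 * y⁻¹)⁻¹ * (y * g * y⁻¹)⁻¹ =
        y * (a.1 * g * a.1⁻¹ * g⁻¹) * y⁻¹ := by group
    rw [e]
    exact conj_XT hy hac
  · intro a a' h5
    have h6 : y * a.1 * y⁻¹ = y * a'.1 * y⁻¹ := congrArg Subtype.val h5
    exact Subtype.ext (mul_left_cancel (mul_right_cancel h6))

/-- no conjugate in the other parabolic subgroups -/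
def Hno (g : ↥(chevF4.group K)) : Prop := ∀ i : Fin 4, i ≠ 3 → ∀ x, x * g * x⁻¹ ∉ PK K {k | k ≠ i}

theorem Hno.conj {g : ↥(chevF4.group K)} (hg : Hno g) (y : ↥(chevF4.group K)) : Hno (y * g * y⁻¹) := by
  intro i hi x hx
  apply hg i hi (x * y)
  have e : x * y * g * (x * y)⁻¹ = x * (y * g * y⁻¹) * x⁻¹ := by group
  rw [e]
  exact hx

/-- the elements of the cell of `w` -/
def Claim (K : Type u) [Field K] [Finite K] (p : ℕ) [Fact p.Prime] [CharP K p] (w : CoxeterMatrix.F₄.Group) : Prop :=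
  ∀ g : ↥(chevF4.group K), g ∈ PK K {k | k ≠ 3} → Hno g →
    Cell (rgd (K := K) hF cF p).nsys cF hF.isCartan (XX chevF4 4 K) w g → Nat.card ↥(DZ g) ≤ Nat.card K ^ 9

section

variable {p : ℕ} [Fact p.Prime] [CharP K p]

theorem claim_fine {ω : List (Fin 4)} (hω : cq ω ≤ 9) : Claim K p (cF.wordProd ω) := by
  rintro g hg hno ⟨b₁, hb₁, k, hk, b₂, hb₂, rfl⟩
  have R := rgd (K := K) hF cF p
  have h1 := card_DZ_conj (g := b₁ * k * b₂) (B_le_PJ (J := {k | k ≠ 3}) hb₂)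
  have e : b₂ * (b₁ * k * b₂) * b₂⁻¹ = b₂ * b₁ * k := by group
  rw [e] at h1
  exact h1.trans ((card_DZ_word ω (mul_mem hb₂ hb₁) hk).trans (Nat.pow_le_pow_right Nat.card_pos hω))

theorem claim_miss {ω : List (Fin 4)} {i : Fin 4} (hi : i ≠ 3) (hω : i ∉ ω) : Claim K p (cF.wordProd ω) := by
  intro g hg hno hc
  exfalso
  have hw : cF.wordProd ω ∈ WJ cF {k | k ≠ i} := by
    clear hc
    induction ω with
    | nil => rw [wordProd_nil]; exact one_mem _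
    | cons j ω ih =>
      rw [List.mem_cons, not_or] at hω
      rw [wordProd_cons]
      refine mul_mem (Cfsg.Agent.Tits.Exchange.simple_mem_WJ cF ?_) (ih hω.2)
      exact fun e => hω.1 e.symm
  have hW := finite_W hF cF
  have h1 : g ∈ PK K {k | k ≠ i} := (mem_PJ_iff_cell (rgd (K := K) hF cF p)).2 ⟨_, hw, hc⟩
  apply hno i hi 1
  rwa [one_mul, inv_one, mul_one]

theorem claim_step {w : CoxeterMatrix.F₄.Group} {i : Fin 4} (hi : i ≠ 3) (h1 : Claim K p w)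
    (h2 : Claim K p (w * cF.simple i)) : Claim K p (cF.simple i * (w * cF.simple i)) := by
  rintro g hg hno ⟨b₁, hb₁, k, hk, b₂, hb₂, rfl⟩
  have R := rgd (K := K) hF cF p
  have hW := finite_W hF cF
  obtain ⟨n, hn⟩ := exists_rp cF R.nsys (cF.simple i)
  have hnP : n ∈ PK K {k | k ≠ 3} :=
    (mem_PJ_iff_cell R).2 ⟨_, Cfsg.Agent.Tits.Exchange.simple_mem_WJ cF hi, cell_of_rp hn⟩
  have hbP : b₁ ∈ PK K {k | k ≠ 3} := B_le_PJ hb₁
  set y := (b₁ * n)⁻¹ with hy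
  have hyP : y ∈ PK K {k | k ≠ 3} := inv_mem (mul_mem hbP hnP)
  have hk' : Rp cF R.nsys (w * cF.simple i) (n⁻¹ * k) := by
    have := hn.inv.mul hk
    rwa [inv_simple, simple_mul_simple_cancel_left] at this
  have hc1 : Cell R.nsys cF hF.isCartan (XX chevF4 4 K) (w * cF.simple i) (n⁻¹ * k * (b₂ * b₁)) :=
    (cell_of_rp hk').mul_right (mul_mem hb₂ hb₁)
  have e : y * (b₁ * k * b₂) * y⁻¹ = n⁻¹ * k * (b₂ * b₁) * n := by rw [hy]; group
  have hc2 : Cell R.nsys cF hF.isCartan (XX chevF4 4 K) w (y * (b₁ * k * b₂) * y⁻¹) ∨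
      Cell R.nsys cF hF.isCartan (XX chevF4 4 K) (w * cF.simple i) (y * (b₁ * k * b₂) * y⁻¹) := by
    rw [e]
    have hn' : Cell R.nsys cF hF.isCartan (XX chevF4 4 K) (cF.simple i) n⁻¹ := by
      have h := (cell_of_rp (h := hF.isCartan) (X := XX chevF4 4 K) hn).inv
      rwa [inv_simple] at h
    have e2 : (n⁻¹ * k * (b₂ * b₁) * n)⁻¹⁻¹ = n⁻¹ * k * (b₂ * b₁) * n := inv_inv _
    have e3 : n⁻¹ * (n⁻¹ * k * (b₂ * b₁))⁻¹ = (n⁻¹ * k * (b₂ * b₁) * n)⁻¹ := by group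
    rcases Cell.simple_mul R hn' hc1.inv with h3 | ⟨-, h3⟩
    · left
      rw [e3] at h3
      have h4 := h3.inv
      rw [e2] at h4
      have e4 : (cF.simple i * (w * cF.simple i)⁻¹)⁻¹ = w := by
        rw [mul_inv_rev, inv_inv, inv_simple, mul_assoc, simple_mul_simple_self, mul_one]
      rwa [e4] at h4
    · right
      rw [e3] at h3
      have h4 := h3.inv
      rwa [e2, inv_inv] at h4
  refine (card_DZ_conj hyP).trans ?_
  rcases hc2 with h3 | h3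
  · exact h1 _ (mul_mem (mul_mem hyP hg) (inv_mem hyP)) (hno.conj y) h3
  · exact h2 _ (mul_mem (mul_mem hyP hg) (inv_mem hyP)) (hno.conj y) h3

theorem claim_wrap {ω : List (Fin 4)} {i : Fin 4} (hi : i ≠ 3) (h1 : Claim K p (cF.wordProd ω))
    (h2 : Claim K p (cF.wordProd (ω ++ [i]))) : Claim K p (cF.wordProd (i :: (ω ++ [i]))) := by
  rw [wordProd_append, wordProd_singleton] at h2
  rw [wordProd_cons, wordProd_append, wordProd_singleton]
  exact claim_step hi h1 h2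

theorem claim_all {ω : List (Fin 4)} (hω : ω ∈ LC) : Claim K p (cF.wordProd ω) := by
  have b1 : Claim K p (cF.wordProd [0, 1, 2, 1, 0]) :=
    claim_wrap (ω := [1, 2, 1]) (i := 0) (by decide) (claim_miss (i := 0) (by decide) (by decide))
      (claim_fine (by decide +kernel))
  have b2 : Claim K p (cF.wordProd [2, 1, 0, 1, 2]) :=
    claim_wrap (ω := [1, 0, 1]) (i := 2) (by decide) (claim_miss (i := 2) (by decide) (by decide))
      (claim_fine (by decide +kernel))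
  have b3 : Claim K p (cF.wordProd [1, 2, 1, 0, 1, 2, 1]) :=
    claim_wrap (ω := [2, 1, 0, 1, 2]) (i := 1) (by decide) b2 (claim_fine (by decide +kernel))
  rcases tab_cq ω hω with ⟨i, hi, hiω⟩ | h | h
  · refine claim_miss (i := i) ?_ hiω
    rintro rfl
    exact absurd hi (by decide)
  · exact claim_fine h
  · simp only [List.mem_cons, List.not_mem_nil, or_false] at h
    rcases h with h | h | h
    · rw [eq_of_key cF h]; exact b1
    · rw [eq_of_key cF h]; exact b2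
    · rw [eq_of_key cF h]; exact b3

end

/-- the number of the elements of `V` which commute with `g` modulo `Z` -/
theorem card_DZ {g : ↥(chevF4.group K)} (hg : g ∈ PK K {k | k ≠ 3})
    (hno : ∀ i : Fin 4, i ≠ 3 → ∀ x, x * g * x⁻¹ ∉ PK K {k | k ≠ i}) : Nat.card ↥(DZ g) ≤ Nat.card K ^ 9 := by
  obtain ⟨p, hp⟩ := CharP.exists K
  have : Fact p.Prime := ⟨CharP.char_is_prime K p⟩
  have R := rgd (K := K) hF cF p
  have hW := finite_W hF cF
  obtain ⟨w, hw, hc⟩ := (mem_PJ_iff_cell R).1 hg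
  have hJ : ({k | k ≠ 3} : Set (Fin 4)) = {i | i ∈ ([0, 1, 2] : List (Fin 4))} := by
    ext i
    fin_cases i <;> simp
  rw [hJ] at hw
  obtain ⟨ω, hω, rfl⟩ := (mem_WJ_iff cF chkLC w).1 hw
  exact claim_all (p := p) hω g hg hno hc

/-- **The count.** `g ∈ P`, no conjugate in `P_{k ≠ i}`, `i ≠ 3`: at most `q ^ 9` elements of `V` commute with `g` modulo
`Z`. -/
theorem cnt {g : ↥(chevF4.group K)} (hg : g ∈ PK K {k | k ≠ 3})
    (hno : ∀ i : Fin 4, i ≠ 3 → ∀ x, x * g * x⁻¹ ∉ PK K {k | k ≠ i}) :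
    Nat.card {x : ↥(VK K {k | k ≠ 3}) // (x : ↥(chevF4.group K)) * g * (x : ↥(chevF4.group K))⁻¹ * g⁻¹ ∈ XT K} ≤
      Nat.card K ^ 9 := by
  refine le_trans ?_ (card_DZ hg hno)
  refine Nat.card_le_card_of_injective (fun x => ⟨x.1.1, mem_DZ.2 ⟨x.1.2, x.2⟩⟩) ?_
  intro x y h
  have h1 : (x.1.1 : ↥(chevF4.group K)) = y.1.1 := congrArg (fun z : ↥(DZ g) => z.1) h
  exact Subtype.ext (Subtype.ext h1)

end Cfsg.Agent.H928.FR
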