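import Cfsg.Agent.H928.FR.Cnt

/-!
# `F₄(q)`: box (X) (helper928, S2452)

`P` the parabolic subgroup of type `C₃`, `V` its unipotent radical, `Z` the root group of the highest root.

* `card_DZ_notB` : `g ∈ P`, `g ∉ B`: `|DZ g| ≤ q ^ 11`;
* `card_DZ_U` : the same for `g ∈ U`, `g ∉ V`;
* `card_DZ_tor` : the same for `g = t v`, `1 ≠ t ∈ T`, `v ∈ U`;
* `x_box` : `g ∈ P`, `g ∉ V`: at most `q ^ 11` elements of `V` commute with `g` modulo `Z`.
-/

set_option autoImplicit false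
set_option linter.unusedSectionVars false

namespace Cfsg.Agent.H928.FR

open CoxeterSystem Cfsg.Agent.ChevalleyStructure.CoxeterGeom Cfsg.Agent.Tits.Roots Cfsg.Agent.Tits.Core
  Cfsg.Agent.Tits.RootComb Cfsg.Agent.Nodes.Comb Cfsg.Agent.Nodes.Reps Cfsg.Agent.Nodes.BNOf
  Cfsg.Agent.Nodes.StabComb Cfsg.Agent.Nodes.Bruhat Cfsg.Agent.Nodes.OppDec Cfsg.Agent.Nodes.LeviDec
  Cfsg.Agent.Nodes.NormalForm Cfsg.Agent.Nodes.Unique Cfsg.Agent.Nodes.NormX Cfsg.Agent.Nodes.Coroot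
  Cfsg.Agent.KFacts.RgdPar Cfsg.Agent.KFacts.RgdChevCoord
  Cfsg.Agent.KFacts.RgdBorelTits Cfsg.Agent.KFacts.RgdFilt
open Cfsg.Agent.Tits.Exchange (exists_isLongest)
open Cfsg.Lie Cfsg.Agent.ChevalleyStructure Cfsg.Agent.ChevalleyStructure.Elts
  Cfsg.Agent.ChevalleyStructure.RootVec Cfsg.Agent.ChevalleyStructure.RootVecTab
  Cfsg.Agent.ChevalleyStructure.NPerm Cfsg.Agent.ChevalleyStructure.CoxeterGeomTypes
open Cfsg.Agent.Nodes Cfsg.Agent.Nodes.RGDChev
open Cfsg.Agent.H701.F43.Cent (hF cF nroots finW idxV mem_NotJ_iff lt_idxV)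
open Cfsg.Agent.H520.FC
open Cfsg.Agent.H374.TC.Cu
open Cfsg.Agent.H744.FC (conj_XT)
open Cfsg.Agent.SigZero.FFourTwo (LC chkLC key act mem_WJ_iff rep_word eq_of_key)

section General

variable {I W Y : Type*} [Fintype I] [DecidableEq I] [Group W] [Group Y] {M : CoxeterMatrix I}
  {cs : CoxeterSystem M W} {A : I → I → ℤ} {h : IsCartan M A} {p : ℕ} {T : Subgroup Y} {n : I → Y}
  {X : (I → ℤ) → Subgroup Y} (R : RGD cs h p T n X)

include R

/-- `s = t v` : the root `x` is not used if `t` has no fixed points on `X x` -/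
theorem mem_of_tor [Finite W] (hFi : Filt R (F2 X X)) {f : I → ℝ} (hf : ∀ x ∈ RGD.Pos cs h, 0 ≤ ev f x)
    (hS : Sf cs h f ⊆ RGD.Pos cs h) (hc : Closed cs h (Sf cs h f)) {x : I → ℤ} (hxS : x ∈ Sf cs h f)
    (hc' : Closed cs h (Sf cs h f \ {x})) (hab : ∀ u ∈ X x, ∀ v ∈ X x, u * v = v * u)
    (hn : RGD.B cs h T X ≤ Subgroup.normalizer (RGD.Sup X (Sf cs h f \ {x}) : Set Y)) {t v s a : Y} (ht : t ∈ T)
    (hv : v ∈ RGD.Sup X (RGD.Pos cs h)) (hs : s = t * v) (hct : ∀ u ∈ X x, t * u = u * t → u = 1)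
    (ha : a ∈ RGD.Sup X (Sf cs h f)) (hz : a * s * a⁻¹ * s⁻¹ ∈ RGD.Sup X (Sf cs h f \ {x})) :
    a ∈ RGD.Sup X (Sf cs h f \ {x}) := by
  obtain ⟨u, hu, c, hc0, rfl⟩ := (mem_peel R hS hc hxS).1 ha
  set N := RGD.Sup X (Sf cs h f \ {x}) with hN
  have hvB : v ∈ RGD.B cs h T X := RGD.U_le_B hv
  have hxP := hS hxS
  have huB : u ∈ RGD.B cs h T X := RGD.X_le_B hxP.1 hxP.2 hu
  have h2 : v * u * v⁻¹ * u⁻¹ ∈ N := comm_N R hFi hf hxP hxS hab hn hu hv
  have h3 : v * c * v⁻¹ ∈ N := (Subgroup.mem_normalizer_iff.1 (hn hvB) _).1 hc0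
  have h4 : u⁻¹ * (v * u * v⁻¹ * u⁻¹) * u ∈ N := conj_nrm (hn huB) h2
  set c2 := u⁻¹ * (v * u * v⁻¹ * u⁻¹) * u * (v * c * v⁻¹) with hc2
  have h5 : c2 ∈ N := mul_mem h4 h3
  have htB : t ∈ RGD.B cs h T X := (le_sup_left : T ≤ RGD.B cs h T X) ht
  have h6 : t * c2 * t⁻¹ ∈ N := (Subgroup.mem_normalizer_iff.1 (hn htB) _).1 h5
  have h7 : t * u * t⁻¹ ∈ X x := by
    have h8 : cj t (X x) = X x := R.tor x hxP.1 t ht
    rw [← h8]
    exact conj_mem_cj.2 hu
  set z := u * c * s * (u * c)⁻¹ * s⁻¹ with hzd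
  have h8 : z⁻¹ * (u * c) = t * u * t⁻¹ * (t * c2 * t⁻¹) := by
    have e1 : z⁻¹ * (u * c) = s * (u * c) * s⁻¹ := by rw [hzd]; group
    rw [e1, hs, hc2]; group
  have h8' : u⁻¹ * z⁻¹ * u ∈ N := conj_nrm (hn huB) (inv_mem hz)
  have h9 : (t * u * t⁻¹)⁻¹ * u = t * c2 * t⁻¹ * (u⁻¹ * z⁻¹ * u * c)⁻¹ := by
    have e1 : u * (u⁻¹ * z⁻¹ * u * c) = t * u * t⁻¹ * (t * c2 * t⁻¹) := by rw [← h8]; group
    have e2 : u = t * u * t⁻¹ * (t * c2 * t⁻¹) * (u⁻¹ * z⁻¹ * u * c)⁻¹ := by rw [← e1]; group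
    calc (t * u * t⁻¹)⁻¹ * u = (t * u * t⁻¹)⁻¹ * (t * u * t⁻¹ * (t * c2 * t⁻¹) * (u⁻¹ * z⁻¹ * u * c)⁻¹) := by
          rw [← e2]
      _ = _ := by group
  have h10 : (t * u * t⁻¹)⁻¹ * u = 1 := by
    refine X_inf_N R hxP (fun y hy => hS hy.1) hc' (fun hy => hy.2 rfl) (mul_mem (inv_mem h7) hu) ?_
    rw [h9]
    exact mul_mem h6 (inv_mem (mul_mem h8' hc0))
  have h11 : t * u * t⁻¹ = u := inv_mul_eq_one.1 h10
  have h12 : u = 1 := hct u hu (mul_inv_eq_iff_eq_mul.1 h11)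
  rw [h12, one_mul]
  exact hc0

end General

universe u

variable {K : Type u} [Field K] [Finite K]

theorem tab_all : ∀ ω ∈ LC, key ω = key [] ∨ cq ω ≤ 11 := by decide +kernel

/-- elements outside `B` -/
theorem card_DZ_notB {g : ↥(chevF4.group K)} (hg : g ∈ PK K {k | k ≠ 3}) (hgB : g ∉ BK K) :
    Nat.card ↥(DZ g) ≤ Nat.card K ^ 11 := by
  obtain ⟨p, hp⟩ := CharP.exists K
  have : Fact p.Prime := ⟨CharP.char_is_prime K p⟩
  have R := rgd (K := K) hF cF p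
  have hW := finite_W hF cF
  obtain ⟨w, hw, hc⟩ := (mem_PJ_iff_cell R).1 hg
  have hJ : ({k | k ≠ 3} : Set (Fin 4)) = {i | i ∈ ([0, 1, 2] : List (Fin 4))} := by
    ext i
    fin_cases i <;> simp
  rw [hJ] at hw
  obtain ⟨ω, hω, rfl⟩ := (mem_WJ_iff cF chkLC w).1 hw
  rcases tab_all ω hω with h2 | h2
  · exfalso
    have h3 : cF.wordProd ω = 1 := by
      rw [eq_of_key cF h2, wordProd_nil]
    rw [h3] at hc
    exact hgB hc.mem_of_one
  · obtain ⟨b₁, hb₁, k, hk, b₂, hb₂, rfl⟩ := hc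
    have h1 := card_DZ_conj (g := b₁ * k * b₂) (B_le_PJ (J := {k | k ≠ 3}) hb₂)
    have e : b₂ * (b₁ * k * b₂) * b₂⁻¹ = b₂ * b₁ * k := by group
    rw [e] at h1
    exact h1.trans ((card_DZ_word ω (mul_mem hb₂ hb₁) hk).trans (Nat.pow_le_pow_right Nat.card_pos h2))

/-- elements of `U` outside `V` -/
theorem card_DZ_U {g : ↥(chevF4.group K)} (hg : g ∈ UK K) (hgV : g ∉ VK K {k | k ≠ 3}) :
    Nat.card ↥(DZ g) ≤ Nat.card K ^ 11 := by
  obtain ⟨p, hp⟩ := CharP.exists K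
  have : Fact p.Prime := ⟨CharP.char_is_prime K p⟩
  have R := rgd (K := K) hF cF p
  have hW := finite_W hF cF
  obtain ⟨u, hu, v, hv, rfl⟩ := (mem_U_iff (T := TT chevF4 K) R (J := {k | k ≠ 3})).1 hg
  obtain ⟨wj, hwj⟩ := exists_isLongest cF ({k | k ≠ 3} : Set (Fin 4))
  obtain ⟨kJ, hkJ⟩ := exists_rp cF R.nsys wj
  have hkP : kJ ∈ PK K {k | k ≠ 3} := LJ_le_PJ (rp_mem_LJ R hwj.1 hkJ)
  have hgP : u * v ∈ PK K {k | k ≠ 3} := B_le_PJ (RGD.U_le_B hg)
  refine (card_DZ_conj hkP).trans (card_DZ_notB (mul_mem (mul_mem hkP hgP) (inv_mem hkP)) fun hB => ?_)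
  have h1 : kJ * v * kJ⁻¹ ∈ BK K :=
    VJ_le_B _ (conj_mem_Sup R hkJ (fun x hx => hx.1) (fun x hx => NotJ.act hwj.1 hx) hv)
  have h2 : kJ * u * kJ⁻¹ ∈ BK K := by
    have e : kJ * u * kJ⁻¹ = kJ * (u * v) * kJ⁻¹ * (kJ * v * kJ⁻¹)⁻¹ := by group
    rw [e]
    exact mul_mem hB (inv_mem h1)
  have h3 : kJ * u * kJ⁻¹ ∈ UN cF hF.isCartan (XX chevF4 4 K) :=
    conj_mem_Sup R hkJ (S' := Neg cF hF.isCartan) (fun x hx => hx.1)
      (fun x hx => ⟨hx.1.act _, rep_longest_nonpos hwj hx⟩) hu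
  have h4 := eq_one_of_mem_UN_of_mem_B R h3 h2
  have h5 : u = 1 := by
    have e : u = kJ⁻¹ * (kJ * u * kJ⁻¹) * kJ := by group
    rw [e, h4]; group
  rw [h5, one_mul] at hgV
  exact hgV hv

/-! ### the torus -/

theorem idx_ne : ∀ r ∈ ([25, 27, 28, 30, 33, 34, 35, 37, 41] : List ℕ), r ∉ idxV := by decide +kernel

theorem prs_sub : ∀ i : Fin 4, i ≠ 3 → ∀ b ∈ (![[(29, 36), (31, 38), (32, 39), (40, 44)],
    [(26, 29), (36, 38), (39, 40), (43, 44)], [(24, 26), (31, 32), (38, 39), (42, 43), (45, 46)], []] :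
      Fin 4 → List (ℕ × ℕ)) i, b ∈ Cfsg.Agent.H962.FC.prs i := by decide +kernel

theorem vec3 : ∀ r ∈ idxV, r = 47 ∨ vec chevF4 4 r 3 = 1 := by decide +kernel

theorem cnt_le11 (f : ℕ → Bool) (h0 : ∀ r, r ∉ idxV → f r = false) (i : Fin 4) (hi : i ≠ 3)
    (h1 : ∀ b ∈ Cfsg.Agent.H962.FC.prs i, b.2 ≠ 47 → ¬ (f b.1 = true ∧ f b.2 = true)) :
    ((List.range' 24 24).filter f).length ≤ 11 := by
  have hle : ∀ n, (f n).toNat ≤ 1 := fun n => Bool.toNat_le _
  have h2 : ∀ b ∈ Cfsg.Agent.H962.FC.prs i, b.2 ≠ 47 → (f b.1).toNat + (f b.2).toNat ≤ 1 := by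
    intro b hb hb2
    have := h1 b hb hb2
    revert this
    cases f b.1 <;> cases f b.2 <;> simp
  have h3 : ∀ r ∈ ([25, 27, 28, 30, 33, 34, 35, 37, 41] : List ℕ), (f r).toNat = 0 := by
    intro r hr
    rw [h0 r (idx_ne r hr)]; rfl
  simp only [List.mem_cons, List.not_mem_nil, or_false, forall_eq_or_imp, forall_eq] at h3
  obtain ⟨n1, n2, n3, n4, n5, n6, n7, n8, n9⟩ := h3
  rw [Cfsg.Agent.H962.FC.cnt]
  have a1 := hle 24
  have a3 := hle 26
  have a6 := hle 29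
  have a8 := hle 31
  have a9 := hle 32
  have a13 := hle 36
  have a15 := hle 38
  have a16 := hle 39
  have a17 := hle 40
  have a19 := hle 42
  have a20 := hle 43
  have a21 := hle 44
  have a22 := hle 45
  have a23 := hle 46
  have a24 := hle 47
  have hi' : i = 0 ∨ i = 1 ∨ i = 2 := by
    fin_cases i
    · exact Or.inl rfl
    · exact Or.inr (Or.inl rfl)
    · exact Or.inr (Or.inr rfl)
    · exact absurd rfl hi
  rcases hi' with rfl | rfl | rfl
  · have b1 := h2 (29, 36) (by decide) (by decide)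
    have b2 := h2 (31, 38) (by decide) (by decide)
    have b3 := h2 (32, 39) (by decide) (by decide)
    have b4 := h2 (40, 44) (by decide) (by decide)
    dsimp only at b1 b2 b3 b4
    omega
  · have b1 := h2 (26, 29) (by decide) (by decide)
    have b2 := h2 (36, 38) (by decide) (by decide)
    have b3 := h2 (39, 40) (by decide) (by decide)
    have b4 := h2 (43, 44) (by decide) (by decide)
    dsimp only at b1 b2 b3 b4
    omega
  · have b1 := h2 (24, 26) (by decide) (by decide)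
    have b2 := h2 (31, 32) (by decide) (by decide)
    have b3 := h2 (38, 39) (by decide) (by decide)
    have b4 := h2 (42, 43) (by decide) (by decide)
    dsimp only at b1 b2 b3 b4
    omega

open Classical in
/-- **An element `t ≠ 1` of the torus centralises at most 10 of the 14 root groups of `V / Z`.** -/
theorem tor11 {t : ↥(chevF4.group K)} (ht : t ∈ TT chevF4 K) (h1 : t ≠ 1) :
    ((List.range' 24 24).filter fun r =>
      decide (r = 47 ∨ (r ∈ idxV ∧ ∀ v ∈ XX chevF4 4 K (vec chevF4 4 r), t * v = v * t))).length ≤ 11 := by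
  obtain ⟨p, hp⟩ := CharP.exists K
  have : Fact p.Prime := ⟨CharP.char_is_prime K p⟩
  by_cases hex : ∃ i : Fin 4, i ≠ 3 ∧ ch hF (sr i) t ≠ 1
  · obtain ⟨i, hi3, hi⟩ := hex
    refine cnt_le11 _ ?_ i hi3 ?_
    · intro r hr
      rw [decide_eq_false_iff_not]
      rintro (rfl | ⟨h, -⟩)
      · exact hr (by decide)
      · exact hr h
    · intro b hb hb47 hc
      rw [decide_eq_true_eq, decide_eq_true_eq] at hc
      obtain ⟨hb1, hb2, hb3⟩ := Cfsg.Agent.H962.FC.prs_tab i b hb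
      have hb1' : b.1 ≠ 47 := by
        have : ∀ i : Fin 4, ∀ b ∈ Cfsg.Agent.H962.FC.prs i, b.1 ≠ 47 := by decide +kernel
        exact this i b hb
      have h2 := Cfsg.Agent.H962.FC.ch_of_comm ht hb1 (hc.1.resolve_left hb1').2
      have h3 := Cfsg.Agent.H962.FC.ch_of_comm ht hb2 (hc.2.resolve_left hb47).2
      have h4 : vec chevF4 4 b.2 = vec chevF4 4 b.1 + sr i := by
        funext j
        rw [hb3 j, Pi.add_apply]
        by_cases hj : j = i
        · subst hj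
          rw [if_pos rfl, sr_self]
        · rw [if_neg hj, sr_ne hj]
      rw [Cfsg.Agent.H962.FC.ch_vadd ht hb1 hb2 h4, h2, one_mul] at h3
      exact hi h3
  · push Not at hex
    have h3 : ch hF (sr 3) t ≠ 1 := by
      intro h3
      refine h1 (PRankPar.Chev.faithful hF cF p t ht fun i => ?_)
      by_cases hi : i = 3
      · rw [hi]; exact h3
      · exact hex i hi
    have h4 : ((List.range' 24 24).filter fun r =>
        decide (r = 47 ∨ (r ∈ idxV ∧ ∀ v ∈ XX chevF4 4 K (vec chevF4 4 r), t * v = v * t))) =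
        (List.range' 24 24).filter fun r => decide (r = 47) := by
      refine List.filter_congr fun r hr => ?_
      rw [decide_eq_decide]
      refine ⟨fun h => ?_, Or.inl⟩
      rcases h with h | ⟨hr1, hr2⟩
      · exact h
      · rcases vec3 r hr1 with h | h
        · exact h
        · exfalso
          have hr48 := lt_idxV r hr1
          have h5 := Cfsg.Agent.H962.FC.ch_of_comm ht hr48 hr2
          rw [PRankPar.Chev.ch_prod hF cF p _ (isRoot_vec hF cF hr48) t ht, Fin.prod_univ_four, hex 0 (by decide),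
            hex 1 (by decide), hex 2 (by decide), h, one_zpow, one_zpow, one_zpow, one_mul, one_mul, one_mul,
            zpow_one] at h5
          exact h3 h5
    rw [h4]
    decide

/-- `g = t v` -/
theorem card_DZ_tor {t v : ↥(chevF4.group K)} (ht : t ∈ TT chevF4 K) (h1 : t ≠ 1) (hv : v ∈ UK K) :
    Nat.card ↥(DZ (t * v)) ≤ Nat.card K ^ 11 := by
  classical
  obtain ⟨p, hp⟩ := CharP.exists K
  have : Fact p.Prime := ⟨CharP.char_is_prime K p⟩
  have R := rgd (K := K) hF cF p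
  have e0 : UK K ⊓ DZ (t * v) = DZ (t * v) := inf_eq_right.2 (DZ_le_UK _)
  rw [← e0]
  refine (chain (DZ (t * v)) (fun r => r = 47 ∨ (r ∈ idxV ∧ ∀ v ∈ XX chevF4 4 K (vec chevF4 4 r), t * v = v * t))
    ?_).trans (Nat.pow_le_pow_right Nat.card_pos (tor11 ht h1))
  rintro m h24 hm hP a ⟨ha, haD⟩
  refine ⟨?_, haD⟩
  rw [not_or] at hP
  obtain ⟨hm47, hP⟩ := hP
  obtain ⟨haV, hac⟩ := mem_DZ.1 haD
  by_cases hmV : m ∈ idxV
  · have C := (coords (K := K) hF cF p).coord _ (root_vec hm)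
    have e := Sf_eq h24 hm
    have e' : Sf cF hF.isCartan (fm m) \ {vec chevF4 4 m} = SS (m + 1) := by rw [e, SS_diff hm]
    have h2 := mem_of_tor R (filtF K p) (ev_nonneg h24 hm) (by rw [e]; exact SS_pos h24)
      (by rw [e]; exact closed_SS h24) (x := vec chevF4 4 m) (by rw [e]; exact ⟨m, le_rfl, hm, rfl⟩)
      (by rw [e']; exact closed_SS (by omega)) ?_ (by rw [e']; exact B_nrm_SS K (by omega) (by omega)) ht hv rfl ?_
      (a := a) (by rw [e]; exact ha)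
      (by rw [e']; exact RGD.le_Sup (S := SS (m + 1)) ⟨47, by omega, by norm_num, rfl⟩ hac)
    · rw [e'] at h2
      exact h2
    · intro u hu v hv
      obtain ⟨a, rfl⟩ := (C.mem u).1 hu
      obtain ⟨b, rfl⟩ := (C.mem v).1 hv
      rw [← C.add, ← C.add, add_comm]
    · intro u hu htu
      obtain ⟨a, rfl⟩ := (C.mem u).1 hu
      by_contra hne
      have ha : a ≠ 0 := by
        rintro rfl
        exact hne C.zero
      apply hP
      have hact := C.act t ht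
      have h3 := hact a
      rw [htu, mul_inv_cancel_right] at h3
      have h4 := C.inj h3
      have h5 : ch hF (vec chevF4 4 m) t = 1 := by
        have h6 : ch hF (vec chevF4 4 m) t * a = 1 * a := by rw [one_mul]; exact h4.symm
        exact mul_right_cancel₀ ha h6
      refine ⟨hmV, fun v hv => ?_⟩
      obtain ⟨b, rfl⟩ := (C.mem v).1 hv
      have h6 := hact b
      rw [h5, one_mul] at h6
      exact mul_inv_eq_iff_eq_mul.1 h6
  · -- `m` is not a root of `V`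
    have h1 : a ∈ RGD.Sup (XX chevF4 4 K) (SS m ∩ NotJ cF hF.isCartan {k | k ≠ 3}) := by
      rw [← inf_eq R (SS_pos h24) (fun x hx => ⟨hx.1, hx.2.1⟩) (closed_SS h24) (closed_NotJ' _)]
      exact ⟨ha, haV⟩
    refine RGD.Sup_mono (fun y hy => ?_) h1
    rcases SS_mem hm y hy.1 with rfl | h5
    · exfalso
      obtain ⟨r, hr, e⟩ := mem_NotJ_iff.1 hy.2
      have hr48 : r < 48 := by
        have := lt_idxV r hr
        rwa [nroots] at this
      have h8 := vec_inj' hm hr48 e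
      subst h8
      exact hmV hr
    · exact h5

/-- elements of `P` outside `V` -/
theorem card_DZ_all {g : ↥(chevF4.group K)} (hg : g ∈ PK K {k | k ≠ 3}) (hgV : g ∉ VK K {k | k ≠ 3}) :
    Nat.card ↥(DZ g) ≤ Nat.card K ^ 11 := by
  obtain ⟨p, hp⟩ := CharP.exists K
  have : Fact p.Prime := ⟨CharP.char_is_prime K p⟩
  have R := rgd (K := K) hF cF p
  by_cases hgB : g ∈ BK K
  · obtain ⟨t, ht, v, hv, rfl⟩ := R.mem_B.1 hgB
    by_cases ht1 : t = 1
    · subst ht1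
      rw [one_mul] at hgV ⊢
      exact card_DZ_U hv hgV
    · exact card_DZ_tor ht ht1 hv
  · exact card_DZ_notB hg hgB

/-- **Box (X).** `g ∈ P`, `g ∉ V`: at most `q ^ 11` elements of `V` commute with `g` modulo `Z`. -/
theorem x_box {g : ↥(chevF4.group K)} (hg : g ∈ PK K {k | k ≠ 3}) (hgV : g ∉ VK K {k | k ≠ 3}) :
    Nat.card {x : ↥(VK K {k | k ≠ 3}) // (x : ↥(chevF4.group K)) * g * (x : ↥(chevF4.group K))⁻¹ * g⁻¹ ∈ XT K} ≤
      Nat.card K ^ 11 := by
  refine le_trans ?_ (card_DZ_all hg hgV)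
  refine Nat.card_le_card_of_injective (fun x => ⟨x.1.1, mem_DZ.2 ⟨x.1.2, x.2⟩⟩) ?_
  intro x y h
  have h1 : (x.1.1 : ↥(chevF4.group K)) = y.1.1 := congrArg (fun z : ↥(DZ g) => z.1) h
  exact Subtype.ext (Subtype.ext h1)

end Cfsg.Agent.H928.FR
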